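-- Project FXSP (S5975), package [ORB] (helper72).
import Mathlib
import Cfsg.Agent.Lib.Helper4.FXSP.Defs

set_option autoImplicit false
open scoped MatrixGroups
open scoped Matrix

namespace Cfsg.Agent.Lib.Helper72.FXSP

open Cfsg.Agent.Lib.Helper4.FXSP

universe u

/-- [ORB] for `y` of prime order `r ≠ char`, `r ∣ q ^ rank (y - 1) - 1`. -/
theorem pkgOrb : PkgOrb.{u} := by
  intro F _ _ d r hr hrF y hyr
  classical
  obtain ⟨Y, hY⟩ : ∃ Y : Md d F, Y = (y : Md d F) := ⟨_, rfl⟩
  rw [← hY]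
  have hYr : Y ^ r = 1 := by
    rw [hY, ← Units.val_pow_eq_pow_val, hyr, Units.val_one]
  obtain ⟨R, hR⟩ : ∃ R : Submodule F (Vd d F), R = LinearMap.range (Y - 1).mulVecLin :=
    ⟨_, rfl⟩
  have hrank : (Y - 1).rank = Module.finrank F R := by
    rw [hR]
    rfl
  have hcard : Fintype.card R = Fintype.card F ^ (Y - 1).rank := by
    rw [hrank, Module.card_eq_pow_finrank (K := F)]
  have hstab : ∀ w ∈ R, Y *ᵥ w ∈ R := by
    intro w hw
    rw [hR] at hw ⊢
    obtain ⟨v, rfl⟩ := hw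
    refine ⟨Y *ᵥ v, ?_⟩
    rw [Matrix.mulVecLin_apply, Matrix.mulVecLin_apply, Matrix.mulVec_mulVec,
      Matrix.mulVec_mulVec]
    congr 1
    rw [sub_mul, mul_sub, one_mul, mul_one]
  obtain ⟨f, hf⟩ : ∃ f : Function.End R, ∀ w : R, ((f w : R) : Vd d F) = Y *ᵥ (w : Vd d F) :=
    ⟨fun w => ⟨Y *ᵥ (w : Vd d F), hstab _ w.2⟩, fun _ => rfl⟩
  have hfpow : ∀ (i : ℕ) (w : R), (((f ^ i) w : R) : Vd d F) = (Y ^ i) *ᵥ (w : Vd d F) := by
    intro i
    induction i with
    | zero =>
      intro w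
      rw [pow_zero, pow_zero, Matrix.one_mulVec]
      rfl
    | succ i ih =>
      intro w
      rw [pow_succ', pow_succ', ← Matrix.mulVec_mulVec, ← ih w, ← hf]
      rfl
  have hfr : f ^ r ^ 1 = 1 := by
    rw [pow_one]
    funext w
    apply Subtype.ext
    rw [hfpow, hYr, Matrix.one_mulVec]
    rfl
  have hrF' : Fact r.Prime := ⟨hr⟩
  have hmod := Equiv.Perm.card_fixedPoints_modEq (f := f) hfr
  have hfix : ∀ (inst : Fintype (Function.fixedPoints f)), @Fintype.card _ inst = 1 := by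
    intro inst
    rw [Fintype.card_eq_one_iff]
    have h0 : f 0 = 0 := by
      apply Subtype.ext
      rw [hf]
      simp
    refine ⟨⟨0, h0⟩, ?_⟩
    rintro ⟨w, hw⟩
    apply Subtype.ext
    show w = 0
    have hw' : Y *ᵥ (w : Vd d F) = (w : Vd d F) := by
      rw [← hf w]
      exact congrArg Subtype.val hw
    obtain ⟨v, hv⟩ : ∃ v, (Y - 1).mulVecLin v = (w : Vd d F) := by
      have hwR : (w : Vd d F) ∈ LinearMap.range (Y - 1).mulVecLin := by
        rw [← hR]
        exact w.2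
      exact hwR
    rw [Matrix.mulVecLin_apply, Matrix.sub_mulVec, Matrix.one_mulVec] at hv
    have hYv : Y *ᵥ v = v + (w : Vd d F) := by
      rw [← hv]
      abel
    have hpow : ∀ i : ℕ, (Y ^ i) *ᵥ v = v + (i : F) • (w : Vd d F) := by
      intro i
      induction i with
      | zero => simp
      | succ i ih =>
        rw [pow_succ', ← Matrix.mulVec_mulVec, ih, Matrix.mulVec_add, Matrix.mulVec_smul, hYv,
          hw', Nat.cast_succ, add_smul, one_smul]
        abel
    have h1 := hpow r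
    rw [hYr, Matrix.one_mulVec] at h1
    have h2 : (r : F) • (w : Vd d F) = 0 := by
      have h3 : v + (r : F) • (w : Vd d F) = v + 0 := by rw [add_zero]; exact h1.symm
      exact add_left_cancel h3
    have h4 := (smul_eq_zero.mp h2).resolve_left hrF
    exact Subtype.ext h4
  rw [hfix, hcard] at hmod
  have hq : 1 ≤ Fintype.card F ^ (Y - 1).rank := Nat.one_le_pow _ _ Fintype.card_pos
  exact (Nat.modEq_iff_dvd' hq).mp hmod.symm

end Cfsg.Agent.Lib.Helper72.FXSP
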