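-- Project FXSP (S5975), package [RANGE] (helper72).
import Mathlib
import Cfsg.Agent.Lib.Helper4.FXSP.Defs
import Cfsg.Agent.Lib.Helper99.Symp

set_option autoImplicit false
open scoped MatrixGroups
open scoped Matrix

namespace Cfsg.Agent.Lib.Helper72.FXSP

open Cfsg.Agent.Lib.Helper4.FXSP

universe u

/-- [RANGE] for a symplectic `y` of order prime to the characteristic, the form is non-degenerate
on the range of `y - 1`. -/
theorem pkgRange : PkgRange.{u} := by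
  intro F _ _ d y hy N hN hyN w hw hperp
  obtain ⟨Y, hY⟩ : ∃ Y : Md d F, Y = (y : Md d F) := ⟨_, rfl⟩
  rw [← hY] at hw hperp
  have hYN : Y ^ N = 1 := by
    rw [hY, ← Units.val_pow_eq_pow_val, hyN, Units.val_one]
  have hinv : ∀ u v : Vd d F, Cfsg.sympForm d F (Y *ᵥ u) (Y *ᵥ v) = Cfsg.sympForm d F u v := by
    intro u v
    rw [hY]
    exact hy u v
  have hmem : ∀ (i : ℕ) (x : Vd d F),
      x - (Y ^ i) *ᵥ x ∈ LinearMap.range (Y - 1).mulVecLin := by
    intro i x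
    refine ⟨(-(∑ j ∈ Finset.range i, Y ^ j)) *ᵥ x, ?_⟩
    rw [Matrix.mulVecLin_apply, Matrix.mulVec_mulVec, mul_neg, mul_geom_sum, neg_sub,
      Matrix.sub_mulVec, Matrix.one_mulVec]
  obtain ⟨T, hT⟩ : ∃ T : Md d F, T = ∑ i ∈ Finset.range N, Y ^ i := ⟨_, rfl⟩
  have hYT : Y * T = T := by
    have h1 : (Y - 1) * T = 0 := by rw [hT, mul_geom_sum, hYN, sub_self]
    rw [sub_mul, one_mul, sub_eq_zero] at h1
    exact h1
  have hsum : ∀ x : Vd d F,
      (N : F) • x - T *ᵥ x ∈ LinearMap.range (Y - 1).mulVecLin := by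
    intro x
    have h2 : (N : F) • x - T *ᵥ x = ∑ i ∈ Finset.range N, (x - (Y ^ i) *ᵥ x) := by
      rw [Finset.sum_sub_distrib, Finset.sum_const, Finset.card_range, hT, Matrix.sum_mulVec,
        Nat.cast_smul_eq_nsmul]
    rw [h2]
    exact Submodule.sum_mem _ (fun i _ => hmem i x)
  obtain ⟨v₀, hv₀⟩ := hw
  rw [Matrix.mulVecLin_apply, Matrix.sub_mulVec, Matrix.one_mulVec] at hv₀
  apply Cfsg.Agent.Lib.Helper99.sympB_nondeg d w
  intro x
  have hB : ∀ a b : Vd d F, Cfsg.Agent.Lib.Helper99.sympB (F := F) d a b = Cfsg.sympForm d F a b :=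
    Cfsg.Agent.Lib.Helper99.sympB_apply d
  have h1 : Cfsg.Agent.Lib.Helper99.sympB (F := F) d w (T *ᵥ x) = 0 := by
    rw [← hv₀, map_sub, LinearMap.sub_apply, sub_eq_zero, hB, hB]
    have h3 : Y *ᵥ (T *ᵥ x) = T *ᵥ x := by rw [Matrix.mulVec_mulVec, hYT]
    rw [← hinv v₀ (T *ᵥ x), h3]
  have h4 : Cfsg.Agent.Lib.Helper99.sympB (F := F) d w ((N : F) • x - T *ᵥ x) = 0 := by
    rw [hB]
    exact hperp _ (hsum x)
  have h5 : (N : F) * Cfsg.Agent.Lib.Helper99.sympB (F := F) d w x = 0 := by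
    have h6 : (N : F) • x = T *ᵥ x + ((N : F) • x - T *ᵥ x) := by abel
    rw [← smul_eq_mul, ← map_smul, h6, map_add, h1, h4, add_zero]
  exact (mul_eq_zero.mp h5).resolve_left hN

end Cfsg.Agent.Lib.Helper72.FXSP
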